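import Mathlib.GroupTheory.Sylow
import Mathlib.GroupTheory.Perm.Sign
import Mathlib.GroupTheory.SpecificGroups.Alternating
import Mathlib.FieldTheory.Finite.Basic
import Mathlib.Tactic

/-!
A group with an alternating section of degree at least seven and abelian `7`-subgroups has an
element of order `7` conjugate to its square or fourth power.
-/

set_option autoImplicit false

open scoped Pointwise

namespace CfsgLib.ReeAltSection

/-- An automorphism of order three of an abelian `7`-group fixes the group or scales an element. -/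
theorem exists_scaled {A : Type*} [CommGroup A] (hA : IsPGroup 7 A) (f : A →* A)
    (h3 : ∀ a, f (f (f a)) = a) (hne : ∃ a, f a ≠ a) :
    ∃ z : A, orderOf z = 7 ∧ ∃ j, (j = 2 ∨ j = 4) ∧ f z = z ^ j := by
  haveI : Fact (Nat.Prime 7) := ⟨by norm_num⟩
  have h7 : ∃ a : A, a ^ 7 = 1 ∧ f a ≠ a := by
    by_contra hcon
    push Not at hcon
    obtain ⟨a, ha⟩ := hne
    obtain ⟨n, hn⟩ := hA a
    suffices ∀ n : ℕ, ∀ a : A, a ^ 7 ^ n = 1 → f a = a from ha (this n a hn)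
    intro n
    induction n with
    | zero => intro a h; rw [pow_zero, pow_one] at h; rw [h, map_one]
    | succ n ih =>
      intro a h
      have h1 : f (a ^ 7) = a ^ 7 := ih (a ^ 7) (by rw [← pow_mul, ← pow_succ']; exact h)
      have hd7 : (f a * a⁻¹) ^ 7 = 1 := by
        rw [mul_pow, ← map_pow, h1, inv_pow, mul_inv_cancel]
      have hd := hcon _ hd7
      set d := f a * a⁻¹ with hdd
      have e : f a = a * d := by rw [hdd]; simp
      have e3 : a * d * d * d = a := by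
        calc a * d * d * d = f (f (f a)) := by simp only [e, map_mul, hd, mul_assoc]
          _ = a := h3 a
      have hd3 : d ^ 3 = 1 := by
        rw [mul_assoc, mul_assoc, mul_eq_left] at e3
        rw [pow_succ, pow_succ, pow_one, mul_assoc]
        exact e3
      have hd1 : d = 1 := by
        calc d = (d ^ 7) * ((d ^ 3) ^ 2)⁻¹ := by group
          _ = 1 := by rw [hd7, hd3, one_pow, inv_one, one_mul]
      rw [e, hd1, mul_one]
  obtain ⟨a, ha7, hane⟩ := h7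
  have hb7 : f a ^ 7 = 1 := by rw [← map_pow, ha7, map_one]
  have hc7 : f (f a) ^ 7 = 1 := by rw [← map_pow, hb7, map_one]
  have red : ∀ (x : A) (k : ℕ), x ^ 7 = 1 → x ^ k = x ^ (k % 7) := fun x k hx => by
    conv_lhs => rw [← Nat.div_add_mod k 7, pow_add, pow_mul, hx, one_pow, one_mul]
  by_cases h2 : a * f a ^ 4 * f (f a) ^ 2 = 1
  swap
  · refine ⟨_, orderOf_eq_prime ?_ h2, 2, Or.inl rfl, ?_⟩
    · rw [mul_pow, mul_pow, ← pow_mul, ← pow_mul, mul_comm 4, mul_comm 2, pow_mul, pow_mul, ha7,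
        hb7, hc7, one_pow, one_pow, one_mul, one_mul]
    · simp only [map_mul, map_pow, h3, mul_pow, ← pow_mul]
      rw [red (f a) (4 * 2) hb7]
      simp only [Nat.reduceMul, Nat.reduceMod, pow_one]
      ac_rfl
  by_cases h4 : a * f a ^ 2 * f (f a) ^ 4 = 1
  swap
  · refine ⟨_, orderOf_eq_prime ?_ h4, 4, Or.inr rfl, ?_⟩
    · rw [mul_pow, mul_pow, ← pow_mul, ← pow_mul, mul_comm 4, mul_comm 2, pow_mul, pow_mul, ha7,
        hb7, hc7, one_pow, one_pow, one_mul, one_mul]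
    · simp only [map_mul, map_pow, h3, mul_pow, ← pow_mul]
      rw [red (f a) (2 * 4) hb7, red (f (f a)) (4 * 4) hc7]
      simp only [Nat.reduceMul, Nat.reduceMod, pow_one]
      ac_rfl
  exfalso
  set b := f a
  set c := f b
  have hfix : f (a * b * c) = a * b * c := by
    simp only [map_mul, c, b, h3]
    ac_rfl
  have hprod : (a * b * c) ^ 6 = a ^ 4 := by
    calc (a * b * c) ^ 6 = (a * b ^ 4 * c ^ 2) * (a * b ^ 2 * c ^ 4) * a ^ 4 := by
          simp only [mul_pow]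
          rw [show (6 : ℕ) = 1 + 1 + 4 from rfl, pow_add, pow_add, pow_one,
            show b ^ (1 + 1 + 4) = b ^ 4 * b ^ 2 by rw [← pow_add],
            show c ^ (1 + 1 + 4) = c ^ 2 * c ^ 4 by rw [← pow_add]]
          ac_rfl
      _ = a ^ 4 := by rw [h2, h4, one_mul, one_mul]
  have h4fix : f (a ^ 4) = a ^ 4 := by rw [← hprod, map_pow, hfix]
  apply hane
  calc f a = f ((a ^ 4) ^ 2) := by rw [← pow_mul, red a (4 * 2) ha7]; simp [b]
    _ = (a ^ 4) ^ 2 := by rw [map_pow, h4fix]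
    _ = a := by rw [← pow_mul, red a (4 * 2) ha7]; simp

theorem two_pow_mod {k : ℕ} (h : k % 3 ≠ 0) : 2 ^ k % 7 ≠ 1 := by
  conv_lhs => rw [← Nat.div_add_mod k 3, pow_add, pow_mul, Nat.mul_mod, Nat.pow_mod]
  have : k % 3 = 1 ∨ k % 3 = 2 := by omega
  rcases this with e | e <;> rw [e] <;> simp

theorem mem_comap_normalizer {H Q : Type*} [Group H] [Group Q] {π : H →* Q} {x : H} {s : Q}
    (hs8 : (s ^ 2) ^ 4 = s) (hc : π x * s * (π x)⁻¹ = s ^ 2) :
    x ∈ (Subgroup.normalizer (Subgroup.zpowers s : Set Q)).comap π := by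
  have hmap : (Subgroup.zpowers s).map (MulAut.conj (π x)).toMonoidHom = Subgroup.zpowers s := by
    rw [MonoidHom.map_zpowers, MulEquiv.coe_toMonoidHom, MulAut.conj_apply, hc]
    refine le_antisymm (Subgroup.zpowers_le.mpr (pow_mem (Subgroup.mem_zpowers s) 2))
      (Subgroup.zpowers_le.mpr ?_)
    have h := pow_mem (Subgroup.mem_zpowers (s ^ 2)) 4
    rwa [hs8] at h
  rw [Subgroup.mem_comap, Subgroup.mem_normalizer_iff]
  intro h
  constructor
  · intro hh; rw [← hmap]; exact ⟨h, hh, MulAut.conj_apply _ _⟩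
  · intro hh
    rw [← hmap, Subgroup.mem_map_equiv, MulAut.conj_symm_apply] at hh
    simpa [mul_assoc] using hh

/-- Lifting from a quotient. -/
theorem exists_conj_pow {H Q : Type*} [Group H] [Finite H] [Group Q] (π : H →* Q)
    (hπ : Function.Surjective π) {s c : Q} (hs : orderOf s = 7) (hc : c * s * c⁻¹ = s ^ 2)
    (hab : ∀ P : Subgroup H, IsPGroup 7 P → ∀ a ∈ P, ∀ b ∈ P, a * b = b * a) :
    ∃ z y : H, orderOf z = 7 ∧ ∃ j, (j = 2 ∨ j = 4) ∧ y * z * y⁻¹ = z ^ j := by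
  classical
  haveI : Fact (Nat.Prime 7) := ⟨by norm_num⟩
  set K := (Subgroup.zpowers s).comap π with hK
  set L := (Subgroup.normalizer (Subgroup.zpowers s : Set Q)).comap π with hL
  have hKL : K ≤ L := Subgroup.comap_mono Subgroup.le_normalizer
  haveI : (K.subgroupOf L).Normal :=
    (Subgroup.normal_subgroupOf_iff_le_normalizer hKL).mpr (Subgroup.le_normalizer_comap π)
  obtain ⟨x, rfl⟩ := hπ c
  have hs8 : (s ^ 2) ^ 4 = s := by
    rw [← pow_mul, ← pow_mod_orderOf, hs]; simp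
  have hxL : x ∈ L := by
    refine mem_comap_normalizer hs8 hc
  obtain ⟨z₀, hz₀⟩ := hπ s
  obtain ⟨e, o', ho', heq⟩ := Nat.exists_eq_pow_mul_and_not_dvd (orderOf_pos z₀).ne' 7 (by norm_num)
  set z₁ := z₀ ^ o' ^ 6 with hz₁
  have hz₁s : π z₁ = s := by
    have h1 : o' ^ 6 % 7 = 1 := by
      rw [Nat.pow_mod]
      have := Nat.mod_lt o' (show 7 > 0 by norm_num)
      have : o' % 7 ≠ 0 := fun h => ho' (Nat.dvd_of_mod_eq_zero h)
      interval_cases o' % 7 <;> simp_all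
    rw [hz₁, map_pow, hz₀, ← pow_mod_orderOf, hs, h1, pow_one]
  have hz₁K : z₁ ∈ K := by rw [hK, Subgroup.mem_comap, hz₁s]; exact Subgroup.mem_zpowers s
  have hz₁p : IsPGroup 7 (Subgroup.zpowers (⟨⟨z₁, hKL hz₁K⟩, hz₁K⟩ : ↥(K.subgroupOf L))) := by
    refine IsPGroup.iff_card.mpr ?_
    rw [Nat.card_zpowers]
    have h1 : orderOf z₁ ∣ 7 ^ e := by
      refine orderOf_dvd_of_pow_eq_one ?_
      rw [hz₁, ← pow_mul, show o' ^ 6 * 7 ^ e = orderOf z₀ * o' ^ 5 by rw [heq]; ring, pow_mul,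
        pow_orderOf_eq_one, one_pow]
    have h2 : orderOf (⟨⟨z₁, hKL hz₁K⟩, hz₁K⟩ : ↥(K.subgroupOf L)) = orderOf z₁ := by
      rw [← Subgroup.orderOf_coe, ← Subgroup.orderOf_coe]
    obtain ⟨i, -, hi⟩ := (Nat.dvd_prime_pow (by norm_num)).mp h1
    exact ⟨i, h2.trans hi⟩
  obtain ⟨P, hP⟩ := hz₁p.exists_le_sylow
  have hzP := hP (Subgroup.mem_zpowers _)
  have hfr := Sylow.normalizer_sup_eq_top (N := K.subgroupOf L) P
  obtain ⟨n, hn, k, hk, hnk⟩ := Subgroup.mem_sup_of_normal_right.mp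
    (hfr.ge (Subgroup.mem_top (⟨x, hxL⟩ : ↥L)))
  set P' : Subgroup H := ((P : Subgroup ↥(K.subgroupOf L)).map (K.subgroupOf L).subtype).map
    L.subtype with hP'
  have hP'7 : IsPGroup 7 P' := (P.2.map _).map _
  have hzP' : z₁ ∈ P' := ⟨_, ⟨_, hzP, rfl⟩, rfl⟩
  have hnP : ∀ a ∈ P', (n : H) * a * (n : H)⁻¹ ∈ P' := by
    rintro _ ⟨a, ha, rfl⟩
    exact ⟨n * a * n⁻¹, (Subgroup.mem_normalizer_iff.mp hn a).mp ha, by simp⟩
  have hns : π n * s * (π n)⁻¹ = s ^ 2 := by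
    have e1 : π x = π n * π k := by rw [← map_mul, ← Subgroup.coe_mul, hnk]
    obtain ⟨i, hi⟩ := Subgroup.mem_zpowers_iff.mp (show π (k : H) ∈ Subgroup.zpowers s from hk)
    rw [e1, ← hi] at hc
    calc π n * s * (π n)⁻¹ = π n * s ^ i * s * (π n * s ^ i)⁻¹ := by group
      _ = s ^ 2 := hc
  obtain ⟨e', o, ho, heq'⟩ :=
    Nat.exists_eq_pow_mul_and_not_dvd (orderOf_pos (n : H)).ne' 3 (by norm_num)
  set y := (n : H) ^ o with hy
  have hyP : ∀ i : ℕ, ∀ a ∈ P', ((n : H) ^ i) * a * ((n : H) ^ i)⁻¹ ∈ P' := by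
    intro i
    induction i with
    | zero => intro a ha; simpa using ha
    | succ i ih =>
      intro a ha
      have := hnP _ (ih a ha)
      convert this using 1
      rw [pow_succ']; group
  have hnsi : ∀ i : ℕ, π n ^ i * s * (π n ^ i)⁻¹ = s ^ 2 ^ i := by
    intro i
    induction i with
    | zero => simp
    | succ i ih =>
      calc π n ^ (i + 1) * s * (π n ^ (i + 1))⁻¹
          = π n * (π n ^ i * s * (π n ^ i)⁻¹) * (π n)⁻¹ := by rw [pow_succ']; group
        _ = s ^ 2 ^ (i + 1) := by rw [ih, ← conj_pow, hns, ← pow_mul, ← pow_succ']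
  have hex : ∃ l : ℕ, ∀ a ∈ P', y ^ 3 ^ l * a * (y ^ 3 ^ l)⁻¹ = a := by
    refine ⟨e', fun a _ => ?_⟩
    rw [hy, ← pow_mul, mul_comm o, ← heq', pow_orderOf_eq_one]
    simp
  set l := Nat.find hex with hl
  have hl0 : l ≠ 0 := by
    intro h0
    have h1 := congrArg π (Nat.find_spec hex z₁ hzP')
    rw [← hl, h0, pow_zero, pow_one, map_mul, map_mul, map_inv, hz₁s, hy, map_pow, hnsi o] at h1
    have h2 : s ^ 2 ^ o = s ^ 1 := by rw [h1, pow_one]
    rw [pow_eq_pow_iff_modEq, hs] at h2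
    exact two_pow_mod (k := o) (fun h => ho (Nat.dvd_of_mod_eq_zero h)) h2
  set w := y ^ 3 ^ (l - 1) with hw
  have hwP : ∀ a ∈ P', w * a * w⁻¹ ∈ P' := by
    rw [hw, hy, ← pow_mul]; exact hyP _
  have hw3 : ∀ a ∈ P', w ^ 3 * a * (w ^ 3)⁻¹ = a := by
    intro a ha
    rw [hw, ← pow_mul, ← pow_succ, show l - 1 + 1 = l by omega]
    exact Nat.find_spec hex a ha
  letI : CommGroup ↥P' :=
    { (inferInstance : Group ↥P') with
      mul_comm := fun a b => Subtype.ext (hab P' hP'7 a a.2 b b.2) }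
  let f : ↥P' →* ↥P' :=
    { toFun := fun a => ⟨w * a * w⁻¹, hwP a a.2⟩
      map_one' := Subtype.ext (by simp)
      map_mul' := fun a b => Subtype.ext (by
        show w * ((a : H) * b) * w⁻¹ = w * a * w⁻¹ * (w * b * w⁻¹)
        group) }
  have hne : ∃ a, f a ≠ a := by
    by_contra h
    push Not at h
    refine Nat.find_min hex (show l - 1 < l by omega) fun a ha => ?_
    exact congrArg Subtype.val (h ⟨a, ha⟩)
  obtain ⟨z, hz, j, hj, hfz⟩ := exists_scaled hP'7 f (fun a => Subtype.ext (by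
    show w * (w * (w * a * w⁻¹) * w⁻¹) * w⁻¹ = a
    calc _ = w ^ 3 * a * (w ^ 3)⁻¹ := by rw [pow_succ, pow_two]; group
      _ = _ := hw3 a a.2)) hne
  exact ⟨z, w, (Subgroup.orderOf_coe z).trans hz, j, hj, congrArg Subtype.val hfz⟩
/-- The seven-cycle and the doubling permutation. -/
theorem exists_alternating {r : ℕ} (hr : 7 ≤ r) :
    ∃ s c : ↥(alternatingGroup (Fin r)), orderOf s = 7 ∧ c * s * c⁻¹ = s ^ 2 := by
  haveI : Fact (Nat.Prime 7) := ⟨by norm_num⟩
  let s₀ : Equiv.Perm (Fin 7) := finRotate 7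
  let c₀ : Equiv.Perm (Fin 7) :=
    ⟨fun i => 2 * i, fun i => 4 * i, by decide, by decide⟩
  have h : Equiv.Perm.sign s₀ = 1 ∧ Equiv.Perm.sign c₀ = 1 ∧ c₀ * s₀ * c₀⁻¹ = s₀ ^ 2 ∧
      s₀ ^ 7 = 1 ∧ s₀ ≠ 1 := by decide +kernel
  obtain ⟨h1, h2, h3, h4, h5⟩ := h
  let e : Fin 7 ≃ Subtype fun i : Fin r => (i : ℕ) < 7 :=
    ⟨fun i => ⟨⟨i, by omega⟩, i.2⟩, fun i => ⟨i.1, i.2⟩, fun i => rfl, fun i => rfl⟩
  let φ : Equiv.Perm (Fin 7) →* Equiv.Perm (Fin r) := Equiv.Perm.extendDomainHom e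
  have hsign : ∀ p, Equiv.Perm.sign (φ p) = Equiv.Perm.sign p := fun p =>
    Equiv.Perm.sign_extendDomain p e
  refine ⟨⟨φ s₀, Equiv.Perm.mem_alternatingGroup.mpr (by rw [hsign, h1])⟩,
    ⟨φ c₀, Equiv.Perm.mem_alternatingGroup.mpr (by rw [hsign, h2])⟩, ?_, ?_⟩
  · rw [← Subgroup.orderOf_coe]
    exact (orderOf_injective φ (Equiv.Perm.extendDomainHom_injective e) s₀).trans
      (orderOf_eq_prime h4 h5)
  · refine Subtype.ext ?_
    show φ c₀ * φ s₀ * (φ c₀)⁻¹ = φ s₀ ^ 2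
    rw [← map_inv, ← map_mul, ← map_mul, h3, map_pow]

end CfsgLib.ReeAltSection
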