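import Cfsg.Agent.TwistedLie.F4Facts
import Cfsg.Agent.TwistedLie.F4Weyl
import Cfsg.Agent.ReeAltSection.Seven

/-!
Elements of order seven of `²F₄(q)` lie in the maximally split torus, whose Weyl group is a `2`-group.
-/

set_option autoImplicit false

namespace CfsgLib.ReeAltSection

open Cfsg.Lie CfsgLib.Chevalley CfsgLib.TwistedLie CfsgLib.TwistedLie.F4

local notation "S" => sysF4

theorem exists_conj_le {G : Type*} [Group G] [Finite G] {p : ℕ} [Fact p.Prime] (A : Subgroup G)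
    (hA : ¬ p ∣ A.index) {P : Subgroup G} (hP : IsPGroup p P) :
    ∃ g : G, ∀ a ∈ P, g * a * g⁻¹ ∈ A := by
  obtain ⟨R⟩ : Nonempty (Sylow p ↥A) := inferInstance
  have hcard : Nat.card ↥((R : Subgroup ↥A).map A.subtype) = p ^ (Nat.card G).factorization p := by
    rw [Subgroup.card_map_of_injective A.subtype_injective, R.card_eq_multiplicity,
      ← A.card_mul_index, Nat.factorization_mul Nat.card_pos.ne' Subgroup.index_ne_zero_of_finite,
      Finsupp.add_apply, Nat.factorization_eq_zero_of_not_dvd hA, add_zero]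
  obtain ⟨Q, hQ⟩ := hP.exists_le_sylow
  obtain ⟨g, hg⟩ := MulAction.exists_smul_eq G Q (Sylow.ofCard _ hcard)
  refine ⟨g, fun a ha => Subgroup.map_subtype_le (R : Subgroup ↥A) ?_⟩
  rw [← Sylow.coe_ofCard _ hcard, ← hg, Sylow.coe_subgroup_smul]
  exact Subgroup.smul_mem_pointwise_smul a (MulAut.conj g) _ (hQ ha)

theorem dihedral_pow : ∀ x : DihedralGroup 8, x ^ 8 = 1 := by decide +kernel

variable {K : Type*} [Field K] [Fintype K] {m : ℕ} (hK : Fintype.card K = 2 ^ (2 * m + 1))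
include hK

theorem torus_comm {a b : GL chevF4.Idx K} (ha : a ∈ (tw hK).T) (hb : b ∈ (tw hK).T) :
    a * b = b * a := by
  have ha' := (tw hK).T_le ha
  have hb' := (tw hK).T_le hb
  rw [Sys.diagonal_eq S] at ha' hb'
  obtain ⟨c, rfl⟩ := ha'
  obtain ⟨d, rfl⟩ := hb'
  rw [← map_mul, ← map_mul, mul_comm]

theorem not_conj_pow {g t : GL chevF4.Idx K} (hg : g ∈ twistedF4 K (2 ^ m)) (ht : t ∈ (tw hK).T)
    (ho : orderOf t = 7) {j : ℕ} (hj : j = 2 ∨ j = 4) : g * t * g⁻¹ ≠ t ^ j := by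
  intro h
  obtain ⟨b₀, hb₀, L, b₁, hb₁, e₀⟩ := (tw hK).cover hg
  obtain ⟨b, hb, n, u, hu, e⟩ := Sys.normal_form_exists S K ((tw hK).G_mem_group hg)
  have hperm : (n : GL chevF4.Idx K)⁻¹ * ((tw hK).nW L : GL chevF4.Idx K) ∈
      chevF4.diagonalSubgroup K :=
    Sys.bruhat_unique S K hb (Subgroup.mem_sup_left (uSub_le_posUnipotent K _ hu))
      ((tw hK).B1_le hb₀).1 ((tw hK).B1_le hb₁).1 n.2 ((tw hK).nW L).2 (e.symm.trans e₀)
  have htd := (tw hK).T_le ht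
  have htn : (n : GL chevF4.Idx K) * t * (n : GL chevF4.Idx K)⁻¹ ∈ chevF4.diagonalSubgroup K :=
    (Subgroup.mem_normalizer_iff.mp (Sys.monomial_le_normalizer S K n.2) t).mp htd
  set t' := t ^ j with ht'
  have ht'd : t' ∈ chevF4.diagonalSubgroup K := pow_mem htd j
  have hflip : t⁻¹ * u * t ∈ uSub chevF4 K (Sys.flipSet S K n) := by
    obtain ⟨c, hc⟩ := (Sys.diagonal_eq S (F := K)) ▸ inv_mem htd
    have := Sys.tor_conj_uSub S K c hu
    rw [hc, inv_inv] at this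
    exact this
  have huV : ∀ u, u ∈ uSub chevF4 K (Sys.flipSet S K n) →
        (n : GL chevF4.Idx K) * u * (n : GL chevF4.Idx K)⁻¹ ∈ chevF4.negUnipotent K := by
    intro u hu
    refine closure_conj_mem ?_ hu
    rintro x ⟨r, s, ⟨⟨hr, hr1⟩, -⟩, hx⟩
    obtain ⟨c, -, hct⟩ := Sys.conj_root S K n ⟨r, hr⟩
    rw [Sys.eq_xG S K hx, show Sys.xG S K r s = Sys.xG S K (⟨r, hr⟩ : Fin chevF4.nroots) s from rfl,
      (hct s).1]
    exact Sys.xG_mem_negUnipotent S K hr1 _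
  have heq : b * ((n : GL chevF4.Idx K) * t * (n : GL chevF4.Idx K)⁻¹) * n * (t⁻¹ * u * t) =
      t' * b * n * u := by
    calc _ = b * n * u * t := by group
      _ = g * t * g⁻¹ * g := by rw [← e]; group
      _ = _ := by rw [h, e]; simp only [mul_assoc]
  obtain ⟨h1, -⟩ := Sys.normal_form_unique S K (mul_mem hb (Subgroup.mem_sup_right htn))
    (mul_mem (Subgroup.mem_sup_right ht'd) hb) (huV _ hflip) (huV _ hu) heq
  obtain ⟨v, hv, c, rfl⟩ := (Sys.mem_borel S K).mp hb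
  have hcd : tor chevF4 K c ∈ chevF4.diagonalSubgroup K := by rw [Sys.diagonal_eq S]; exact ⟨c, rfl⟩
  set X := (n : GL chevF4.Idx K) * t * (n : GL chevF4.Idx K)⁻¹ with hX
  have hv' : t'⁻¹ * v * t' ∈ chevF4.posUnipotent K := by
    have := (Subgroup.mem_normalizer_iff.mp (Sys.diagonal_le_normalizer S K (inv_mem ht'd)) v).mp hv
    simpa using this
  have h2 : (t'⁻¹ * v * t')⁻¹ * v ∈
      chevF4.posUnipotent K ⊓ chevF4.diagonalSubgroup K := by
    refine Subgroup.mem_inf.mpr ⟨mul_mem (inv_mem hv') hv, ?_⟩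
    have e2 : (t'⁻¹ * v * t')⁻¹ * v =
        t'⁻¹ * tor chevF4 K c * X * (tor chevF4 K c)⁻¹ := by
      calc (t'⁻¹ * v * t')⁻¹ * v
          = t'⁻¹ * v⁻¹ * (t' * (v * tor chevF4 K c)) * (tor chevF4 K c)⁻¹ := by group
        _ = t'⁻¹ * v⁻¹ * (v * tor chevF4 K c * X) * (tor chevF4 K c)⁻¹ := by rw [h1]
        _ = t'⁻¹ * tor chevF4 K c * X * (tor chevF4 K c)⁻¹ := by group
    rw [e2]
    exact mul_mem (mul_mem (mul_mem (inv_mem ht'd) hcd) htn) (inv_mem hcd)
  rw [Sys.posUnipotent_inf_diagonal S K, Subgroup.mem_bot, inv_mul_eq_one] at h2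
  have h3 : X = t' := by
    have e3 : v * tor chevF4 K c * X = v * (t' * tor chevF4 K c) := by
      calc v * tor chevF4 K c * X = t' * (v * tor chevF4 K c) := h1
        _ = t' * (t'⁻¹ * v * t') * tor chevF4 K c := by rw [h2]; group
        _ = _ := by group
    rw [mul_assoc] at e3
    have e4 := mul_left_cancel e3
    obtain ⟨a, ha⟩ := (Sys.diagonal_eq S (F := K)) ▸ ht'd
    rw [← ha] at e4 ⊢
    rw [← map_mul, mul_comm a c, map_mul] at e4
    exact mul_left_cancel e4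
  set N := ((tw hK).nW L : GL chevF4.Idx K) with hN
  have hNt : N * t * N⁻¹ = t' := by
    set d := (n : GL chevF4.Idx K)⁻¹ * N with hd
    have hdt : d * t * d⁻¹ = t := by
      obtain ⟨a, ha⟩ := (Sys.diagonal_eq S (F := K)) ▸ hperm
      obtain ⟨x, hx⟩ := (Sys.diagonal_eq S (F := K)) ▸ htd
      rw [← ha, ← hx, ← map_inv, ← map_mul, ← map_mul, mul_inv_cancel_comm]
    calc N * t * N⁻¹ = n * (d * t * d⁻¹) * (n : GL chevF4.Idx K)⁻¹ := by rw [hd]; group
      _ = t' := by rw [hdt]; exact h3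
  have hiter : ∀ i : ℕ, N ^ i * t * (N ^ i)⁻¹ = t ^ j ^ i := by
    intro i
    induction i with
    | zero => simp
    | succ i ih =>
      calc N ^ (i + 1) * t * (N ^ (i + 1))⁻¹ = N * (N ^ i * t * (N ^ i)⁻¹) * N⁻¹ := by
            rw [pow_succ']; group
        _ = t ^ j ^ (i + 1) := by rw [ih, ← conj_pow, hNt, ht', ← pow_mul, ← pow_succ']
  obtain ⟨φ, -, hker⟩ := weyl hK
  have hNm : N ∈ chevF4.monomialSubgroup K ⊓ (tw hK).G := ⟨((tw hK).nW L).2, (tw hK).nW_mem L⟩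
  have h8 : (⟨N, hNm⟩ : ↥(chevF4.monomialSubgroup K ⊓ (tw hK).G)) ^ 8 ∈ φ.ker := by
    rw [MonoidHom.mem_ker, map_pow, dihedral_pow]
  rw [hker, Subgroup.mem_subgroupOf, (tw hK).diag_inf, SubmonoidClass.coe_pow] at h8
  have h9 := hiter 8
  rw [torus_comm hK h8 ht, mul_inv_cancel_right] at h9
  have h10 : t ^ j ^ 8 = t ^ 1 := by rw [← h9, pow_one]
  rw [pow_eq_pow_iff_modEq, ho] at h10
  rcases hj with rfl | rfl <;> exact absurd h10 (by decide)

theorem seven_index : ¬ 7 ∣ ((tw hK).T.subgroupOf (twistedF4 K (2 ^ m))).index := by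
  set q := 2 ^ (2 * m + 1) with hq
  have hT : Nat.card ↥((tw hK).T.subgroupOf (twistedF4 K (2 ^ m))) = (q - 1) ^ 2 := by
    rw [Nat.card_congr (Subgroup.subgroupOfEquivOfLe
      (show (tw hK).T ≤ twistedF4 K (2 ^ m) from (tw hK).T_mem)).toEquiv]
    exact card_TT hK
  have h := ((tw hK).T.subgroupOf (twistedF4 K (2 ^ m))).card_mul_index
  have hG : Nat.card ↥(twistedF4 K (2 ^ m)) =
      q ^ 12 * (q - 1) * (q ^ 3 + 1) * (q ^ 4 - 1) * (q ^ 6 + 1) := card_group hK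
  rw [hT, hG] at h
  have hq1 : 1 < q := Nat.one_lt_two_pow (by omega)
  have h4 : q ^ 4 - 1 = (q - 1) * ((q + 1) * (q ^ 2 + 1)) := by
    obtain ⟨a, ha⟩ : ∃ a, q = a + 1 := ⟨q - 1, by omega⟩
    rw [ha, Nat.add_sub_cancel]
    exact Nat.sub_eq_of_eq_add (by ring)
  have hidx : ((tw hK).T.subgroupOf (twistedF4 K (2 ^ m))).index =
      q ^ 12 * (q ^ 3 + 1) * ((q + 1) * (q ^ 2 + 1)) * (q ^ 6 + 1) :=
    mul_left_cancel₀ (a := (q - 1) ^ 2) (pow_ne_zero _ (by omega)) (h.trans (by rw [h4]; ring))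
  rw [hidx]
  have hmod : q % 7 = 1 ∨ q % 7 = 2 ∨ q % 7 = 4 := by
    rw [hq]
    generalize 2 * m + 1 = k
    induction k with
    | zero => simp
    | succ k ih => rw [pow_succ, Nat.mul_mod]; rcases ih with e | e | e <;> simp [e]
  intro h7
  rw [Nat.dvd_iff_mod_eq_zero] at h7
  rcases hmod with e | e | e <;>
    simp [Nat.mul_mod, Nat.add_mod, Nat.pow_mod, e] at h7

theorem abelian_seven {P : Subgroup ↥(twistedF4 K (2 ^ m))} (hP : IsPGroup 7 P) :
    ∀ a ∈ P, ∀ b ∈ P, a * b = b * a := by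
  haveI : Fact (Nat.Prime 7) := ⟨by norm_num⟩
  obtain ⟨g, hg⟩ := exists_conj_le _ (seven_index hK) hP
  intro a ha b hb
  have e := torus_comm hK (hg a ha) (hg b hb)
  have h1 : g * a * g⁻¹ * (g * b * g⁻¹) = g * b * g⁻¹ * (g * a * g⁻¹) := Subtype.ext e
  refine mul_left_cancel (a := g) (mul_right_cancel (b := g⁻¹) ?_)
  simpa [mul_assoc] using h1

theorem no_alt_section {r : ℕ} (H : Subgroup ↥(twistedF4 K (2 ^ m))) (N : Subgroup ↥H) [N.Normal]
    (e : ↥H ⧸ N ≃* ↥(alternatingGroup (Fin r))) : r ≤ 6 := by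
  by_contra hr
  haveI : Fact (Nat.Prime 7) := ⟨by norm_num⟩
  obtain ⟨s, c, hs, hc⟩ := exists_alternating (r := r) (by omega)
  obtain ⟨z, y, hz, j, hj, hzy⟩ := exists_conj_pow (e.toMonoidHom.comp (QuotientGroup.mk' N))
    (e.surjective.comp (QuotientGroup.mk'_surjective N)) hs hc fun P hP a ha b hb =>
      H.subtype_injective (by
        simpa using abelian_seven hK (hP.map H.subtype) _ (Subgroup.mem_map_of_mem _ ha) _
          (Subgroup.mem_map_of_mem _ hb))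
  have hz7 : IsPGroup 7 (Subgroup.zpowers (z : ↥(twistedF4 K (2 ^ m)))) :=
    IsPGroup.of_card (n := 1) (by rw [Nat.card_zpowers, Subgroup.orderOf_coe, hz, pow_one])
  obtain ⟨g, hg⟩ := exists_conj_le _ (seven_index hK) hz7
  have ht := hg _ (Subgroup.mem_zpowers _)
  set g' : GL chevF4.Idx K := ↑g
  set y' : GL chevF4.Idx K := ↑(y : ↥(twistedF4 K (2 ^ m)))
  set z' : GL chevF4.Idx K := ↑(z : ↥(twistedF4 K (2 ^ m)))
  refine not_conj_pow hK (g := g' * y' * g'⁻¹) (t := g' * z' * g'⁻¹) ?_ ht ?_ hj ?_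
  · exact mul_mem (mul_mem g.2 (y : ↥(twistedF4 K (2 ^ m))).2) (inv_mem g.2)
  · rw [← MulAut.conj_apply, MulEquiv.orderOf_eq]
    exact ((Subgroup.orderOf_coe (z : ↥(twistedF4 K (2 ^ m)))).trans (Subgroup.orderOf_coe z)).trans hz
  · have h := congrArg (fun x : ↥H => ((x : ↥(twistedF4 K (2 ^ m))) : GL chevF4.Idx K)) hzy
    simp only [Subgroup.coe_mul, Subgroup.coe_inv, SubmonoidClass.coe_pow] at h
    rw [conj_pow, ← h]
    group
    rfl

end CfsgLib.ReeAltSection
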